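import Cfsg.Agent.Classical.Linear.Simple
import Cfsg.Prelude.Def_TwoFusion
import Cfsg.Prelude.Def_Transfer
import Cfsg.Agent.Eq.Def_TwoFusion
import Cfsg.Agent.Eq.Def_Transfer
import Mathlib.GroupTheory.Sylow
import Mathlib.GroupTheory.Complement

/-!
The quotient of the local subgroup: if a normal subgroup `D` has `D/L ≅ S₅`, the quotient by `D`
is `SL₃(2)` and some element outside `D` centralizes `D` modulo `L`, then the quotient by `L` is
`S₅ × SL₃(2)`; and `L` has no complement when elements of order 5 centralize no `SL₃(2)`.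
-/

set_option autoImplicit false

namespace CfsgLib.J4Pentad

open scoped commutatorElement

/-- the symmetric group of degree 5 -/
abbrev S5 : Type := Equiv.Perm (Fin 5)

/-- the simple group of order 168 -/
abbrev SL32 : Type := Matrix.SpecialLinearGroup (Fin 3) (ZMod 2)

theorem isSimpleGroup_sl32 : IsSimpleGroup SL32 := by
  have : Fact (Nat.Prime 2) := ⟨Nat.prime_two⟩
  have h2 : ∀ r : ZMod 2, r ^ 3 = 1 → r = 1 := by decide +revert
  have hc : Subgroup.center SL32 = ⊥ := by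
    rw [Subgroup.eq_bot_iff_forall]
    intro x hx
    obtain ⟨r, hr, hrx⟩ := Matrix.SpecialLinearGroup.mem_center_iff.mp hx
    apply Subtype.ext
    rw [← hrx, h2 r (by simpa using hr)]
    simp
  have : IsSimpleGroup (Matrix.ProjectiveSpecialLinearGroup (Fin 3) (ZMod 2)) :=
    CfsgLib.Classical.Linear.isSimpleGroup_psl_fin (by norm_num) (by norm_num)
  exact MulEquiv.isSimpleGroup (H := Matrix.ProjectiveSpecialLinearGroup (Fin 3) (ZMod 2))
    (QuotientGroup.quotientBot.symm.trans (QuotientGroup.quotientMulEquivOfEq hc.symm))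

theorem not_commutative_sl32 : ∃ a b : SL32, a * b ≠ b * a :=
  ⟨⟨!![1, 1, 0; 0, 1, 0; 0, 0, 1], by decide⟩, ⟨!![1, 0, 0; 1, 1, 0; 0, 0, 1], by decide⟩,
    by decide⟩

theorem s5_center : ∀ a : S5, a * Equiv.swap 0 1 = Equiv.swap 0 1 * a →
    a * (finRotate 5 : S5) = finRotate 5 * a → a = 1 := by decide +kernel

/-- a group with normal `A ≅ S₅`, quotient `SL₃(2)` and an outside element centralizing `A` -/
theorem nonempty_iso_prod {X : Type*} [Group X] (A : Subgroup X) [A.Normal]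
    (eA : ↥A ≃* S5) (eB : X ⧸ A ≃* SL32) {s : X} (hs : s ∉ A)
    (hcomm : ∀ a ∈ A, Commute s a) : Nonempty (X ≃* S5 × SL32) := by
  have := isSimpleGroup_sl32
  have : IsSimpleGroup (X ⧸ A) := by
    have : Nontrivial (X ⧸ A) := eB.toEquiv.nontrivial
    exact IsSimpleGroup.isSimpleGroup_of_surjective eB.symm.toMonoidHom eB.symm.surjective
  set C := Subgroup.centralizer (A : Set X) with hC
  have hCn : C.Normal := by
    refine ⟨fun c hc g => Subgroup.mem_centralizer_iff.2 fun a ha => ?_⟩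
    have hga : g⁻¹ * a * g ∈ A := by
      simpa using ‹A.Normal›.conj_mem a ha g⁻¹
    have h := Subgroup.mem_centralizer_iff.1 hc _ hga
    calc a * (g * c * g⁻¹) = g * ((g⁻¹ * a * g) * c) * g⁻¹ := by group
      _ = g * (c * (g⁻¹ * a * g)) * g⁻¹ := by rw [h]
      _ = g * c * g⁻¹ * a := by group
  have hbot : A ⊓ C = ⊥ := by
    rw [Subgroup.eq_bot_iff_forall]
    intro a ha
    have key : ∀ b : S5, eA ⟨a, ha.1⟩ * b = b * eA ⟨a, ha.1⟩ := by
      intro b
      obtain ⟨b, rfl⟩ := eA.surjective b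
      rw [← map_mul, ← map_mul]
      exact congrArg eA (Subtype.ext (Subgroup.mem_centralizer_iff.1 ha.2 b.1 b.2).symm)
    have := s5_center _ (key _) (key _)
    rw [MulEquiv.map_eq_one_iff] at this
    exact congrArg Subtype.val this
  have hsC : s ∈ C := Subgroup.mem_centralizer_iff.2 fun a ha => (hcomm a ha).eq.symm
  have htop : C.map (QuotientGroup.mk' A) = ⊤ := by
    refine ((hCn.map (QuotientGroup.mk' A)
      (QuotientGroup.mk'_surjective A)).eq_bot_or_eq_top).resolve_left fun h => hs ?_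
    have h1 : QuotientGroup.mk' A s ∈ C.map (QuotientGroup.mk' A) :=
      Subgroup.mem_map_of_mem _ hsC
    rw [h, Subgroup.mem_bot] at h1
    exact (QuotientGroup.eq_one_iff s).1 h1
  let f : ↥A × ↥C →* X := MonoidHom.noncommCoprod A.subtype C.subtype fun a c =>
    Subgroup.mem_centralizer_iff.1 c.2 a.1 a.2
  have hf : Function.Bijective f := by
    refine ⟨(injective_iff_map_eq_one f).2 fun ⟨a, c⟩ h => ?_, fun g => ?_⟩
    · have h' : (a : X) * c = 1 := h
      have h2 : (a : X) ∈ C := by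
        rw [eq_inv_of_mul_eq_one_left h']
        exact C.inv_mem c.2
      have ha : (a : X) = 1 := by
        have : (a : X) ∈ A ⊓ C := ⟨a.2, h2⟩
        rwa [hbot, Subgroup.mem_bot] at this
      rw [ha, one_mul] at h'
      exact Prod.ext (Subtype.ext ha) (Subtype.ext h')
    · have h1 : QuotientGroup.mk' A g ∈ C.map (QuotientGroup.mk' A) := by simp [htop]
      obtain ⟨c, hc, he⟩ := Subgroup.mem_map.1 h1
      have h2 : g * c⁻¹ ∈ A := by
        rw [← QuotientGroup.eq_one_iff]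
        show QuotientGroup.mk' A (g * c⁻¹) = 1
        rw [map_mul, map_inv, he, mul_inv_cancel]
      exact ⟨(⟨_, h2⟩, ⟨c, hc⟩), by show g * c⁻¹ * c = g; group⟩
  let π : ↥C →* X ⧸ A := (QuotientGroup.mk' A).comp C.subtype
  have hπ : Function.Bijective π := by
    refine ⟨(injective_iff_map_eq_one π).2 fun c h => Subtype.ext ?_, fun q => ?_⟩
    · have : (c : X) ∈ A ⊓ C := ⟨(QuotientGroup.eq_one_iff _).1 h, c.2⟩
      rwa [hbot, Subgroup.mem_bot] at this
    · have h1 : q ∈ C.map (QuotientGroup.mk' A) := by simp [htop]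
      obtain ⟨c, hc, he⟩ := Subgroup.mem_map.1 h1
      exact ⟨⟨c, hc⟩, he⟩
  exact ⟨(MulEquiv.ofBijective f hf).symm.trans
    (eA.prodCongr ((MulEquiv.ofBijective π hπ).trans eB))⟩

/-- the quotient of the local subgroup -/
theorem nonempty_quotient_prod {M : Type*} [Group M] (L D : Subgroup M) [L.Normal] [D.Normal]
    (hLD : L ≤ D) (e5 : Nonempty (↥D ⧸ L.subgroupOf D ≃* S5))
    (eSL : Nonempty (M ⧸ D ≃* SL32)) {s : M} (hs : s ∉ D)
    (hcomm : ∀ d ∈ D, ⁅s, d⁆ ∈ L) : Nonempty (M ⧸ L ≃* S5 × SL32) := by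
  obtain ⟨e5⟩ := e5
  obtain ⟨eSL⟩ := eSL
  let A : Subgroup (M ⧸ L) := D.map (QuotientGroup.mk' L)
  have : A.Normal := ‹D.Normal›.map _ (QuotientGroup.mk'_surjective L)
  let f : ↥D →* ↥A := (QuotientGroup.mk' L).subgroupMap D
  have hker : f.ker = L.subgroupOf D := by
    ext d
    rw [MonoidHom.mem_ker, Subgroup.mem_subgroupOf, ← QuotientGroup.eq_one_iff (N := L),
      Subtype.ext_iff]
    rfl
  have eA : ↥A ≃* S5 :=
    ((QuotientGroup.quotientMulEquivOfEq hker.symm).trans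
      (QuotientGroup.quotientKerEquivOfSurjective f
        ((QuotientGroup.mk' L).subgroupMap_surjective D))).symm.trans e5
  refine nonempty_iso_prod A eA ((QuotientGroup.quotientQuotientEquivQuotient L D hLD).trans eSL)
    (s := QuotientGroup.mk' L s) ?_ ?_
  · rintro h
    obtain ⟨d, hd, he⟩ := Subgroup.mem_map.1 h
    have h1 : d⁻¹ * s ∈ L := QuotientGroup.eq.1 he
    exact hs (by simpa using D.mul_mem hd (hLD h1))
  · rintro _ ⟨d, hd, rfl⟩
    refine commutatorElement_eq_one_iff_commute.1 ?_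
    rw [← map_commutatorElement]
    exact (QuotientGroup.eq_one_iff _).2 (hcomm d hd)

/-- the quotient, from a subgroup `I ≅ S₅` covering `D/L` and centralized by `s ∉ D` -/
theorem nonempty_quotient_prod_of_le {M : Type*} [Group M] (L D I : Subgroup M) [L.Normal]
    [D.Normal] (hLI : L ⊔ I = D) (hdis : L ⊓ I = ⊥) (e5 : Nonempty (↥I ≃* S5))
    (eSL : Nonempty (M ⧸ D ≃* SL32)) {s : M} (hs : s ∉ D) (hcomm : ∀ i ∈ I, Commute s i) :
    Nonempty (M ⧸ L ≃* S5 × SL32) := by
  have hLD : L ≤ D := hLI ▸ le_sup_left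
  have hID : I ≤ D := hLI ▸ le_sup_right
  refine nonempty_quotient_prod L D hLD ?_ eSL hs ?_
  · let f : ↥I →* ↥D ⧸ L.subgroupOf D :=
      (QuotientGroup.mk' _).comp (Subgroup.inclusion hID)
    have hf : Function.Bijective f := by
      refine ⟨(injective_iff_map_eq_one f).2 fun i h => Subtype.ext ?_, fun q => ?_⟩
      · have h1 : (i : M) ∈ L := by
          simpa [f, Subgroup.mem_subgroupOf] using (QuotientGroup.eq_one_iff _).1 h
        have : (i : M) ∈ L ⊓ I := ⟨h1, i.2⟩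
        rwa [hdis, Subgroup.mem_bot] at this
      · obtain ⟨⟨d, hd⟩, rfl⟩ := QuotientGroup.mk'_surjective _ q
        have hd' : d ∈ (↑(L ⊔ I) : Set M) := by rw [hLI]; exact hd
        rw [Subgroup.normal_mul L I] at hd'
        obtain ⟨l, hl, i, hi, rfl⟩ := Set.mem_mul.1 hd'
        refine ⟨⟨i, hi⟩, (QuotientGroup.eq).2 ?_⟩
        rw [Subgroup.mem_subgroupOf]
        show i⁻¹ * (l * i) ∈ L
        rw [← mul_assoc]
        simpa using ‹L.Normal›.conj_mem l hl i⁻¹
    obtain ⟨e5⟩ := e5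
    exact ⟨(MulEquiv.ofBijective f hf).symm.trans e5⟩
  · intro d hd
    have hd' : d ∈ (↑(L ⊔ I) : Set M) := by rw [hLI]; exact hd
    rw [Subgroup.normal_mul L I] at hd'
    obtain ⟨l, hl, i, hi, rfl⟩ := Set.mem_mul.1 hd'
    have e : ⁅s, l * i⁆ = s * l * s⁻¹ * l⁻¹ := by
      have h := (hcomm i hi).eq
      calc ⁅s, l * i⁆ = s * l * (i * s⁻¹) * i⁻¹ * l⁻¹ := by rw [commutatorElement_def]; group
        _ = s * l * (s⁻¹ * i) * i⁻¹ * l⁻¹ := by rw [((hcomm i hi).inv_left).eq]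
        _ = _ := by group
    rw [e]
    exact L.mul_mem (‹L.Normal›.conj_mem l hl s) (L.inv_mem hl)

/-- no complement, if elements of order 5 centralize no `SL₃(2)` -/
theorem not_isComplement {M : Type*} [Group M] (L : Subgroup M) [L.Normal]
    (e : Nonempty (M ⧸ L ≃* S5 × SL32))
    (h5 : ∀ (q : M) (K : Subgroup M), orderOf q = 5 → K ≤ Subgroup.centralizer {q} →
      ¬ Nonempty (↥K ≃* SL32)) : ∀ K : Subgroup M, ¬ L.IsComplement' K := by
  intro K hK
  obtain ⟨e⟩ := e
  let φ : ↥K →* S5 × SL32 := e.toMonoidHom.comp ((QuotientGroup.mk' L).comp K.subtype)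
  have hφ : Function.Bijective φ := by
    refine e.bijective.comp ⟨(injective_iff_map_eq_one _).2 fun k h => Subtype.ext ?_, fun q => ?_⟩
    · have h1 : (k : M) ∈ L ⊓ K := ⟨(QuotientGroup.eq_one_iff _).1 h, k.2⟩
      rwa [hK.disjoint.eq_bot, Subgroup.mem_bot] at h1
    · obtain ⟨g, rfl⟩ := QuotientGroup.mk'_surjective L q
      have hg : g ∈ (↑(L ⊔ K) : Set M) := by rw [hK.sup_eq_top]; trivial
      rw [Subgroup.normal_mul L K] at hg
      obtain ⟨l, hl, k, hk, rfl⟩ := Set.mem_mul.1 hg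
      refine ⟨⟨k, hk⟩, QuotientGroup.eq.2 ?_⟩
      show k⁻¹ * (l * k) ∈ L
      rw [← mul_assoc]
      simpa using ‹L.Normal›.conj_mem l hl k⁻¹
  let ψ : S5 × SL32 ≃* ↥K := (MulEquiv.ofBijective φ hφ).symm
  let j : SL32 →* M := (K.subtype.comp ψ.toMonoidHom).comp (MonoidHom.inr S5 SL32)
  have hj : Function.Injective j :=
    Subtype.val_injective.comp (ψ.injective.comp fun a b h => (Prod.ext_iff.1 h).2)
  let c : S5 := finRotate 5
  have : Fact (Nat.Prime 5) := ⟨by norm_num⟩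
  have hc : orderOf c = 5 := orderOf_eq_prime (by decide +kernel) (by decide +kernel)
  let q : M := (ψ (c, 1) : M)
  have hq : orderOf q = 5 := by
    rw [show q = K.subtype (ψ (c, 1)) from rfl, orderOf_injective _ K.subtype_injective,
      ← MulEquiv.coe_toMonoidHom, orderOf_injective _ ψ.injective,
      show ((c, 1) : S5 × SL32) = MonoidHom.inl S5 SL32 c from rfl,
      orderOf_injective _ (fun a b h => (Prod.ext_iff.1 h).1), hc]
  refine h5 q j.range hq ?_ ⟨(MonoidHom.ofInjective hj).symm⟩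
  rintro _ ⟨a, rfl⟩
  refine Subgroup.mem_centralizer_singleton_iff.2 ?_
  show (ψ (1, a) : M) * (ψ (c, 1) : M) = (ψ (c, 1) : M) * (ψ (1, a) : M)
  rw [← Subgroup.coe_mul, ← Subgroup.coe_mul, ← map_mul, ← map_mul]
  simp

/-- the same inside a subgroup -/
theorem not_isComplement_subgroupOf {G : Type*} [Group G] (L N : Subgroup G)
    [(L.subgroupOf N).Normal] (e : Nonempty (↥N ⧸ L.subgroupOf N ≃* S5 × SL32))
    (h5 : ∀ (q : G) (K : Subgroup G), orderOf q = 5 → K ≤ Subgroup.centralizer {q} →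
      ¬ Nonempty (↥K ≃* SL32)) : ∀ K : Subgroup ↥N, ¬ (L.subgroupOf N).IsComplement' K := by
  refine not_isComplement _ e fun q K hq hK => ?_
  rintro ⟨i⟩
  refine h5 (q : G) (K.map N.subtype) ?_ ?_
    ⟨(K.equivMapOfInjective N.subtype N.subtype_injective).symm.trans i⟩
  · rw [← hq]; exact (orderOf_injective N.subtype N.subtype_injective q)
  · rintro _ ⟨k, hk, rfl⟩
    refine Subgroup.mem_centralizer_singleton_iff.2 ?_
    exact congrArg Subtype.val (Subgroup.mem_centralizer_singleton_iff.1 (hK hk))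

/-- `C(Q) = Q × J` with `J` a non-split extension of an abelian group by `SL₃(2)` leaves no
`SL₃(2)` in the centralizer of any element of order 5 -/
theorem no_sl32_of_five {G : Type*} [Group G] [Finite G] (h25 : ¬ 25 ∣ Nat.card G)
    {Q J : Subgroup G} (hQ : Nat.card ↥Q = 5)
    (hJ : Cfsg.IsInternalDirectProduct Q J (Subgroup.centralizer (Q : Set G)))
    (E : Subgroup ↥J) [E.Normal] (hE : Cfsg.IsElementaryAbelian 2 E)
    (hJE : Nonempty (↥J ⧸ E ≃* SL32)) (hns : ∀ K : Subgroup ↥J, ¬ E.IsComplement' K) :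
    ∀ (q : G) (K : Subgroup G), orderOf q = 5 → K ≤ Subgroup.centralizer {q} →
      ¬ Nonempty (↥K ≃* SL32) := by
  have := isSimpleGroup_sl32
  have hp : Fact (Nat.Prime 5) := ⟨by norm_num⟩
  -- subgroups of order 5 are Sylow
  have hsyl : ∀ R : Subgroup G, Nat.card ↥R = 5 → ∃ P : Sylow 5 G, (P : Subgroup G) = R := by
    intro R hR
    have hpg : IsPGroup 5 ↥R := IsPGroup.of_card (n := 1) (by rw [hR, pow_one])
    obtain ⟨P, hP⟩ := hpg.exists_le_sylow
    obtain ⟨n, hn⟩ := IsPGroup.iff_card.1 P.isPGroup'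
    refine ⟨P, (Subgroup.eq_of_le_of_card_ge hP ?_).symm⟩
    rw [hR, hn]
    have hn1 : n ≤ 1 := by
      by_contra hlt
      refine h25 (dvd_trans ?_ (hn ▸ (P : Subgroup G).card_subgroup_dvd_card))
      exact pow_dvd_pow 5 (show 2 ≤ n by omega)
    exact (Nat.pow_le_pow_right (by norm_num) hn1).trans_eq (pow_one 5)
  intro q K hq hK ⟨i⟩
  obtain ⟨P₁, hP₁⟩ := hsyl (Subgroup.zpowers q) (by rw [Nat.card_zpowers, hq])
  obtain ⟨P₂, hP₂⟩ := hsyl Q hQ
  obtain ⟨g, hg⟩ := MulAction.exists_smul_eq G P₁ P₂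
  -- move `K` into the centralizer of `Q`
  let K' : Subgroup G := K.map (MulAut.conj g).toMonoidHom
  have hK' : K' ≤ Subgroup.centralizer (Q : Set G) := by
    rintro _ ⟨k, hk, rfl⟩
    refine Subgroup.mem_centralizer_iff.2 fun x hx => ?_
    rw [SetLike.mem_coe, ← hP₂, ← hg, Sylow.coe_subgroup_smul,
      Subgroup.mem_pointwise_smul_iff_inv_smul_mem, hP₁, Subgroup.mem_zpowers_iff] at hx
    obtain ⟨n, hn⟩ := hx
    have hxq : x = g * q ^ n * g⁻¹ := by
      rw [hn]
      simp [MulAut.smul_def, mul_assoc]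
    have hkq : Commute k q := Subgroup.mem_centralizer_singleton_iff.1 (hK hk)
    rw [hxq]
    show g * q ^ n * g⁻¹ * (g * k * g⁻¹) = g * k * g⁻¹ * (g * q ^ n * g⁻¹)
    calc g * q ^ n * g⁻¹ * (g * k * g⁻¹) = g * (q ^ n * k) * g⁻¹ := by group
      _ = g * (k * q ^ n) * g⁻¹ := by rw [(hkq.zpow_right n).eq]
      _ = _ := by group
  let i' : ↥K' ≃* SL32 :=
    ((K.equivMapOfInjective _ (MulAut.conj g).injective).symm).trans i
  have hsimp : IsSimpleGroup ↥K' := MulEquiv.isSimpleGroup i'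
  -- it lies in `J`
  obtain ⟨hQC, hJC, hcomm, -, hsup⟩ := hJ
  have hrep : ∀ x ∈ Subgroup.centralizer (Q : Set G), ∃ u ∈ Q, ∃ y ∈ J, x = u * y := by
    intro x hx
    have hx' : x ∈ Subgroup.closure ((Q : Set G) ∪ (J : Set G)) := by
      rwa [Subgroup.closure_union, Subgroup.closure_eq, Subgroup.closure_eq, hsup]
    refine Subgroup.closure_induction
      (p := fun x _ => ∃ u ∈ Q, ∃ y ∈ J, x = u * y) ?_ ?_ ?_ ?_ hx'
    · rintro a (ha | ha)
      · exact ⟨a, ha, 1, J.one_mem, (mul_one a).symm⟩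
      · exact ⟨1, Q.one_mem, a, ha, (one_mul a).symm⟩
    · exact ⟨1, Q.one_mem, 1, J.one_mem, (one_mul 1).symm⟩
    · rintro _ _ _ _ ⟨u, hu, y, hy, rfl⟩ ⟨u', hu', y', hy', rfl⟩
      refine ⟨u * u', Q.mul_mem hu hu', y * y', J.mul_mem hy hy', ?_⟩
      rw [mul_assoc u, ← mul_assoc y, ← hcomm u' hu' y hy]
      group
    · rintro _ _ ⟨u, hu, y, hy, rfl⟩
      refine ⟨u⁻¹, Q.inv_mem hu, y⁻¹, J.inv_mem hy, ?_⟩
      rw [mul_inv_rev, hcomm _ (Q.inv_mem hu) _ (J.inv_mem hy)]
  have hJn : ∀ x ∈ Subgroup.centralizer (Q : Set G), ∀ y ∈ J, x * y * x⁻¹ ∈ J := by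
    intro x hx y hy
    obtain ⟨u, hu, y', hy', rfl⟩ := hrep x hx
    have hz : y' * y * y'⁻¹ ∈ J := J.mul_mem (J.mul_mem hy' hy) (J.inv_mem hy')
    have e : u * y' * y * (u * y')⁻¹ = u * (y' * y * y'⁻¹) * u⁻¹ := by group
    rw [e, hcomm u hu _ hz, mul_inv_cancel_right]
    exact hz
  have hKJ : K' ≤ J := by
    intro k hk
    -- the image in the abelian quotient by `J` is trivial
    let C := Subgroup.centralizer (Q : Set G)
    have hn : (J.subgroupOf C).Normal := ⟨fun y hy x => hJn x.1 x.2 y.1 hy⟩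
    let f : ↥K' →* ↥C ⧸ J.subgroupOf C :=
      (QuotientGroup.mk' _).comp (Subgroup.inclusion hK')
    by_cases htr : f.ker = ⊤
    · have : (⟨k, hk⟩ : ↥K') ∈ f.ker := by rw [htr]; trivial
      have h1 := (QuotientGroup.eq_one_iff (N := J.subgroupOf C)
        (Subgroup.inclusion hK' ⟨k, hk⟩)).1 (MonoidHom.mem_ker.1 this)
      exact h1
    exfalso
    have hinj : Function.Injective f :=
      (MonoidHom.ker_eq_bot_iff f).1
        ((f.normal_ker.eq_bot_or_eq_top).resolve_right htr)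
    have hab : ∀ a b : ↥C ⧸ J.subgroupOf C, a * b = b * a := by
      have hQcomm : ∀ a ∈ Q, ∀ b ∈ Q, a * b = b * a := fun a ha b hb =>
        Subgroup.mem_centralizer_iff.1 (hQC hb) a ha
      have hred : ∀ x : ↥C, ∃ u : ↥C, (u : G) ∈ Q ∧
          QuotientGroup.mk' (J.subgroupOf C) x = QuotientGroup.mk' _ u := by
        intro x
        obtain ⟨u, hu, y, hy, hx⟩ := hrep x.1 x.2
        refine ⟨⟨u, hQC hu⟩, hu, QuotientGroup.eq.2 ?_⟩
        show (x : G)⁻¹ * u ∈ J
        rw [hx]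
        simpa [mul_assoc] using J.inv_mem hy
      intro a b
      obtain ⟨x, rfl⟩ := QuotientGroup.mk'_surjective _ a
      obtain ⟨y, rfl⟩ := QuotientGroup.mk'_surjective _ b
      obtain ⟨u, hu, hxu⟩ := hred x
      obtain ⟨v, hv, hyv⟩ := hred y
      rw [hxu, hyv, ← map_mul, ← map_mul]
      exact congrArg _ (Subtype.ext (hQcomm _ hu _ hv))
    obtain ⟨a, b, hne⟩ := not_commutative_sl32
    refine hne (i'.symm.injective ?_)
    rw [map_mul, map_mul]
    exact hinj (by rw [map_mul, map_mul]; exact hab _ _)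
  -- a complement of `E` in `J`
  let K₀ : Subgroup ↥J := K'.subgroupOf J
  have i₀ : ↥K₀ ≃* SL32 := (Subgroup.subgroupOfEquivOfLe hKJ).trans i'
  have hs₀ : IsSimpleGroup ↥K₀ := MulEquiv.isSimpleGroup i₀
  refine hns K₀ ?_
  have hdis : E ⊓ K₀ = ⊥ := by
    rcases (Subgroup.Normal.subgroupOf ‹E.Normal› K₀).eq_bot_or_eq_top with h | h
    · rw [Subgroup.subgroupOf_eq_bot, disjoint_iff] at h
      exact h
    · exfalso
      rw [Subgroup.subgroupOf_eq_top] at h
      obtain ⟨a, b, hne⟩ := not_commutative_sl32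
      refine hne (i₀.symm.injective (Subtype.ext ?_))
      rw [map_mul, map_mul, Subgroup.coe_mul, Subgroup.coe_mul]
      exact congrArg Subtype.val
        (hE.1.is_comm.comm ⟨_, h (i₀.symm a).2⟩ ⟨_, h (i₀.symm b).2⟩)
  refine Subgroup.isComplement'_of_card_mul_and_disjoint ?_ (disjoint_iff.2 hdis)
  rw [Nat.card_congr i₀.toEquiv, ← Nat.card_congr hJE.some.toEquiv, mul_comm,
    ← Subgroup.card_eq_card_quotient_mul_card_subgroup E]

end CfsgLib.J4Pentad
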