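import Cfsg.Agent.J4Pentad.Lgroup
import Cfsg.Agent.J4Type67.OfType
import Cfsg.Prelude.Def_Amalgam
import Cfsg.Prelude.Def_TwoFusion

/-!
The largest normal 2-subgroup `L` of the centraliser of a pure elementary subgroup `E` of order eight
in a group of Janko-four type carries the data of `LData`, and has the normaliser of `E` as
normaliser.
-/

set_option autoImplicit false

universe u

namespace CfsgLib.J4Pentad

open CfsgLib.J4Type67

variable {G : Type u} [Group G] [Finite G]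

omit [Finite G] in
theorem le_pCoreOf_of_normal {C N : Subgroup G} (hNC : N ≤ C)
    (hn : C ≤ Subgroup.normalizer (N : Set G)) (hN : IsPGroup 2 ↥N) :
    N ≤ Cfsg.pCoreOf 2 C := by
  haveI hN' : (N.subgroupOf C).Normal := Subgroup.normal_subgroupOf_of_le_normalizer hn
  have h1 : N.subgroupOf C ≤ Cfsg.pCore 2 C :=
    le_sSup ⟨hN', hN.of_equiv (Subgroup.subgroupOfEquivOfLe hNC).symm⟩
  intro x hx
  exact ⟨⟨x, hNC hx⟩, h1 hx, rfl⟩

theorem isPGroup_two_pCoreOf (C : Subgroup G) : IsPGroup 2 ↥(Cfsg.pCoreOf 2 C) := by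
  haveI : Fact (Nat.Prime 2) := ⟨Nat.prime_two⟩
  exact (Sylow.sSup_of_normal _ (fun _ h => h.2) (fun _ h => h.1) :
    IsPGroup 2 ↥(Cfsg.pCore 2 C)).map _

omit [Finite G] in
theorem pCoreOf_two_le (C : Subgroup G) : Cfsg.pCoreOf 2 C ≤ C := Subgroup.map_subtype_le _

theorem le_normalizer_pCoreOf_centralizer (E : Subgroup G) :
    Subgroup.normalizer (E : Set G) ≤
      Subgroup.normalizer (Cfsg.pCoreOf 2 (Subgroup.centralizer (E : Set G)) : Set G) := by
  set C := Subgroup.centralizer (E : Set G) with hC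
  have hN : (Cfsg.pCore 2 C).Normal := Subgroup.sSup_normal _ fun _ h => h.1
  intro g hg
  have hconj : ∀ c ∈ C, g * c * g⁻¹ ∈ C := fun c hc => by
    rw [hC, Subgroup.mem_centralizer_iff]
    intro e he
    have h : g⁻¹ * e * g ∈ E := by
      rw [Subgroup.mem_normalizer_iff.1 hg]
      simpa [mul_assoc] using he
    calc e * (g * c * g⁻¹) = g * ((g⁻¹ * e * g) * c) * g⁻¹ := by group
    _ = g * (c * (g⁻¹ * e * g)) * g⁻¹ := by rw [Subgroup.mem_centralizer_iff.1 hc _ h]
    _ = g * c * g⁻¹ * e := by group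
  have hconj' : ∀ c ∈ C, g⁻¹ * c * g ∈ C := fun c hc => by
    rw [hC, Subgroup.mem_centralizer_iff]
    intro e he
    have h : g * e * g⁻¹ ∈ E := (Subgroup.mem_normalizer_iff.1 hg e).1 he
    calc e * (g⁻¹ * c * g) = g⁻¹ * ((g * e * g⁻¹) * c) * g := by group
    _ = g⁻¹ * (c * (g * e * g⁻¹)) * g := by rw [Subgroup.mem_centralizer_iff.1 hc _ h]
    _ = g⁻¹ * c * g * e := by group
  set L' := (Cfsg.pCoreOf 2 C).map (MulAut.conj g).toMonoidHom
  have hle : L' ≤ Cfsg.pCoreOf 2 C := by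
    refine le_pCoreOf_of_normal ?_ ?_ ((isPGroup_two_pCoreOf C).map _)
    · rintro _ ⟨x, hx, rfl⟩
      exact hconj x (pCoreOf_two_le C hx)
    · intro c hc
      refine Subgroup.mem_normalizer_fintype (S := (L' : Set G)) ?_
      rintro _ ⟨_, ⟨x, hx, rfl⟩, rfl⟩
      refine ⟨(g⁻¹ * c * g) * x * (g⁻¹ * c * g)⁻¹,
        ⟨⟨_, hconj' c hc⟩ * x * (⟨_, hconj' c hc⟩ : C)⁻¹, hN.conj_mem x hx _, rfl⟩, ?_⟩
      simp only [MulEquiv.coe_toMonoidHom, MulAut.conj_apply, Subgroup.subtype_apply]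
      group
  exact Subgroup.mem_normalizer_fintype (S := (Cfsg.pCoreOf 2 C : Set G)) fun x hx =>
    hle ⟨x, hx, rfl⟩

/-- In `S × I` with `I` a symmetric group of degree five, an element of order five normalises no
non-trivial 2-subgroup. -/
theorem two_invariant_eq_bot {S I : Subgroup G} (hS : Nat.card ↥S = 7)
    (hdp : Cfsg.IsInternalDirectProduct S I (Subgroup.centralizer (S : Set G)))
    (hI : Nonempty (↥I ≃* Equiv.Perm (Fin 5))) {q : G} (hq : orderOf q = 5)
    (hqS : q ∈ Subgroup.centralizer (S : Set G)) {U : Subgroup G}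
    (hU : U ≤ Subgroup.centralizer (S : Set G)) (h2 : IsPGroup 2 ↥U)
    (hinv : ∀ x ∈ U, q * x * q⁻¹ ∈ U) : U = ⊥ := by
  haveI : Fact (Nat.Prime 2) := ⟨Nat.prime_two⟩
  haveI : Fact (Nat.Prime 5) := ⟨by norm_num⟩
  obtain ⟨hSC, hIC, hcomm, hdisj, hsup⟩ := hdp
  obtain ⟨e⟩ := hI
  have hdec : ∀ x ∈ Subgroup.centralizer (S : Set G), ∃ a ∈ S, ∃ b ∈ I, a * b = x := by
    intro x hx
    rw [← hsup, ← SetLike.mem_coe, Subgroup.coe_mul_of_left_le_normalizer_right S I
      (fun a ha => Subgroup.mem_normalizer_fintype (S := (I : Set G)) fun b hb => by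
        rw [hcomm a ha b hb, mul_inv_cancel_right]; exact hb)] at hx
    exact hx
  have hfix : ∀ u ∈ U, Commute q u → u ^ 2 = 1 → u = 1 := by
    intro u hu hc hu2
    obtain ⟨a, ha, b, hb, hab⟩ := hdec (q * u) (mul_mem hqS (hU hu))
    have hq5 : q ^ 5 = 1 := hq ▸ pow_orderOf_eq_one q
    have ha7 : a ^ 7 = 1 := by
      have := pow_card_eq_one' (G := S) (x := ⟨a, ha⟩)
      rw [hS] at this
      exact congrArg Subtype.val this
    have hab10 : b ^ 70 = 1 := by
      have h1 : (q * u) ^ 70 = 1 := by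
        rw [hc.mul_pow, show (70 : ℕ) = 5 * 14 from rfl, pow_mul, hq5, one_pow, one_mul,
          show (5 * 14 : ℕ) = 2 * 35 from rfl, pow_mul, hu2, one_pow]
      rwa [← hab, (show Commute a b from hcomm a ha b hb).mul_pow,
        show (70 : ℕ) = 7 * 10 from rfl, pow_mul a, ha7, one_pow, one_mul] at h1
    have key : ∀ x : Equiv.Perm (Fin 5), x ^ 70 = 1 → x ^ 2 = 1 ∨ x ^ 5 = 1 := by decide +kernel
    have hb' : b ^ 2 = 1 ∨ b ^ 5 = 1 := by
      have he : (e ⟨b, hb⟩) ^ 70 = 1 := by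
        rw [← map_pow, map_eq_one_iff _ e.injective]
        exact Subtype.ext hab10
      rcases key _ he with h | h <;> rw [← map_pow, map_eq_one_iff _ e.injective] at h
      · exact Or.inl (congrArg Subtype.val h)
      · exact Or.inr (congrArg Subtype.val h)
    rcases hb' with h | h
    · exfalso
      have h14 : (q * u) ^ 14 = 1 := by
        rw [← hab, (show Commute a b from hcomm a ha b hb).mul_pow, show (14 : ℕ) = 7 * 2 from rfl,
          pow_mul, ha7, one_pow, one_mul, show (7 * 2 : ℕ) = 2 * 7 from rfl, pow_mul, h, one_pow]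
      rw [hc.mul_pow, show u ^ 14 = 1 by rw [show (14 : ℕ) = 2 * 7 from rfl, pow_mul, hu2, one_pow],
        mul_one] at h14
      have := orderOf_dvd_of_pow_eq_one h14
      rw [hq] at this
      norm_num at this
    · have h35 : (q * u) ^ 35 = 1 := by
        rw [← hab, (show Commute a b from hcomm a ha b hb).mul_pow, show (35 : ℕ) = 7 * 5 from rfl,
          pow_mul, ha7, one_pow, one_mul, show (7 * 5 : ℕ) = 5 * 7 from rfl, pow_mul, h, one_pow]
      rw [hc.mul_pow, show q ^ 35 = 1 by rw [show (35 : ℕ) = 5 * 7 from rfl, pow_mul, hq5, one_pow],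
        one_mul, show (35 : ℕ) = 2 * 17 + 1 from rfl, pow_succ, pow_mul, hu2, one_pow,
        one_mul] at h35
      exact h35
  obtain ⟨n, hn⟩ := h2.exists_card_eq
  have h840 : Nat.card ↥U ∣ 840 := by
    refine (Subgroup.card_dvd_of_le hU).trans ?_
    let f : ↥S × ↥I →* G := MonoidHom.mk' (fun x => (x.1 : G) * x.2) fun x y => by
      simp only [Prod.fst_mul, Prod.snd_mul, Subgroup.coe_mul]
      calc (x.1 : G) * y.1 * (x.2 * y.2) = x.1 * (y.1 * x.2) * y.2 := by group
      _ = x.1 * (x.2 * y.1) * y.2 := by rw [hcomm y.1 y.1.2 x.2 x.2.2]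
      _ = _ := by group
    have hle : Subgroup.centralizer (S : Set G) ≤ f.range := fun x hx => by
      obtain ⟨a, ha, b, hb, rfl⟩ := hdec x hx
      exact ⟨(⟨a, ha⟩, ⟨b, hb⟩), rfl⟩
    refine (Subgroup.card_dvd_of_le hle).trans ((Subgroup.card_range_dvd f).trans ?_)
    rw [Nat.card_prod, hS, Nat.card_congr e.toEquiv, Nat.card_perm, Nat.card_eq_fintype_card,
      Fintype.card_fin]
    norm_num [Nat.factorial]
  have h5 := card_modEq_fixed (K := U) (hq ▸ pow_orderOf_eq_one q : q ^ 5 = 1) hinv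
  have hF : Nat.card {x : G // x ∈ U ∧ Commute q x} = 1 := by
    rw [Nat.card_eq_one_iff_unique]
    refine ⟨⟨fun a b => ?_⟩, ⟨⟨1, one_mem _, Commute.one_right q⟩⟩⟩
    have hone : ∀ (k : ℕ) (x : G), x ∈ U → Commute q x → x ^ 2 ^ k = 1 → x = 1 := by
      intro k
      induction k with
      | zero => intro x _ _ h; simpa using h
      | succ j ih =>
        intro x hx hc h
        rw [pow_succ', pow_mul] at h
        exact hfix x hx hc (ih _ (pow_mem hx 2) (hc.pow_right 2) h)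
    have htriv : ∀ x : {x : G // x ∈ U ∧ Commute q x}, x.1 = 1 := fun x => by
      obtain ⟨k, hk⟩ := h2 ⟨x.1, x.2.1⟩
      exact hone k _ x.2.1 x.2.2 (congrArg Subtype.val hk)
    exact Subtype.ext ((htriv a).trans (htriv b).symm)
  rw [hF, hn] at h5
  rw [hn] at h840
  have hn4 : n < 4 := by
    by_contra h
    have h16 := (pow_dvd_pow 2 (not_lt.1 h)).trans h840
    norm_num at h16
  have hn0 : n = 0 := by interval_cases n <;> first | rfl | omega
  rw [hn0, pow_zero] at hn
  exact Subgroup.card_eq_one.1 hn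

/-- The data of `L = O₂(C(E))`. -/
theorem lData {z : G} (hJ : Cfsg.IsOfJankoFourTypeAt z) {E : Subgroup G}
    (hEl : Cfsg.IsElementaryAbelian 2 E) (h8 : Nat.card ↥E = 8) (hzE : z ∈ E)
    (hEz : E ≤ Cfsg.twoCoreOfCentralizer z) {q s : G} (hq : orderOf q = 5)
    (hqE : ∀ e ∈ E, Commute q e) (hs : orderOf s = 7) (hsE : ∀ e ∈ E, s * e * s⁻¹ ∈ E)
    (hqs : Commute q s)
    (hfix5 : ∀ x ∈ Subgroup.centralizer (E : Set G), Commute q x → ∀ k : ℕ, x ^ 2 ^ k = 1 → x ∈ E)
    (hfix7 : ∀ U : Subgroup G, U ≤ Subgroup.centralizer ({s} : Set G) → IsPGroup 2 ↥U →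
      (∀ x ∈ U, q * x * q⁻¹ ∈ U) → U = ⊥) :
    LData (Cfsg.pCoreOf 2 (Subgroup.centralizer (E : Set G))) E q s := by
  haveI : Fact (Nat.Prime 2) := ⟨Nat.prime_two⟩
  obtain ⟨P, hJP⟩ := hJ
  set H := Subgroup.centralizer ({z} : Set G) with hH
  set C := Subgroup.centralizer (E : Set G) with hC
  obtain ⟨d, hdE, hdz, -⟩ : ∃ d : Setup ↥H, d.E = Cfsg.pCore 2 _ ∧ (d.z : G) = z ∧
      Subgroup.zpowers (d.p : G) = P := exists_setup hJP
  have hCH : C ≤ H := fun x hx => Subgroup.mem_centralizer_singleton_iff.2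
    (Subgroup.mem_centralizer_iff.1 hx z hzE).symm
  haveI := hEl.1
  have hEC : E ≤ C := fun x hx => Subgroup.mem_centralizer_iff.2 fun y hy =>
    congrArg Subtype.val (mul_comm' (⟨y, hy⟩ : ↥E) ⟨x, hx⟩)
  have hE2 : IsPGroup 2 ↥E := IsPGroup.of_card (n := 3) (by rw [h8]; norm_num)
  have hEL : E ≤ Cfsg.pCoreOf 2 C := by
    refine le_pCoreOf_of_normal hEC (fun c hc => ?_) hE2
    refine Subgroup.mem_normalizer_fintype (S := (E : Set G)) fun e he => ?_
    rwa [← Subgroup.mem_centralizer_iff.1 hc e he, mul_inv_cancel_right]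
  have hqN : q ∈ Subgroup.normalizer (E : Set G) :=
    Subgroup.mem_normalizer_fintype (S := (E : Set G)) fun e he => by
      rwa [(hqE e he).eq, mul_inv_cancel_right]
  have hsN : s ∈ Subgroup.normalizer (E : Set G) :=
    Subgroup.mem_normalizer_fintype (S := (E : Set G)) hsE
  have hqL := le_normalizer_pCoreOf_centralizer E hqN
  -- `O₂(C(z)) ∩ C(E)` is not abelian
  set U := E.subgroupOf H with hUdef
  have hUE : U ≤ d.E := fun x hx => by
    rw [hdE]; exact mem_twoCore.1 (hEz hx)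
  have hcardU : Nat.card ↥U = 8 := by
    rw [Nat.card_congr (Subgroup.subgroupOfEquivOfLe
      (hEC.trans hCH)).toEquiv, h8]
  have hprod := d.card_centralizer_eq hUE (show (d.z : G) ∈ E by rw [hdz]; exact hzE)
  rw [hcardU] at hprod
  set D := d.E ⊓ Subgroup.centralizer (U : Set H) with hD
  have hDC : ∀ x ∈ D, (x : G) ∈ C := fun x hx => Subgroup.mem_centralizer_iff.2 fun e he => by
    have h := Subgroup.mem_centralizer_iff.1 hx.2 ⟨e, hEC.trans hCH he⟩ he
    exact congrArg Subtype.val h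
  have hDL : ∀ x ∈ D, (x : G) ∈ Cfsg.pCoreOf 2 C := by
    have hn : (Cfsg.pCore 2 H).Normal := Subgroup.sSup_normal _ fun _ h => h.1
    have hle : D.map H.subtype ≤ Cfsg.pCoreOf 2 C := by
      refine le_pCoreOf_of_normal ?_ ?_ ((d.pgroupE.to_le inf_le_left).map _)
      · rintro _ ⟨x, hx, rfl⟩
        exact hDC x hx
      · intro c hc
        refine Subgroup.mem_normalizer_fintype (S := ((D.map H.subtype : Subgroup G) : Set G)) ?_
        rintro _ ⟨x, hx, rfl⟩
        refine ⟨⟨c, hCH hc⟩ * x * (⟨c, hCH hc⟩ : H)⁻¹, ⟨?_, ?_⟩, rfl⟩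
        · exact d.normalE _ _ hx.1
        · refine Subgroup.mem_centralizer_iff.2 fun e he => Subtype.ext ?_
          have hc' : Commute c (e : G) := (Subgroup.mem_centralizer_iff.1 hc e he).symm
          have hx' : Commute (x : G) (e : G) :=
            (Subgroup.mem_centralizer_iff.1 (hDC x hx) e he).symm
          exact ((hc'.mul_left hx').mul_left hc'.inv_left).eq.symm
    exact fun x hx => hle ⟨x, hx, rfl⟩
  refine ⟨isPGroup_two_pCoreOf C, hEL, hEl, h8, pCoreOf_two_le C, hq ▸ pow_orderOf_eq_one q,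
    hs ▸ pow_orderOf_eq_one s, hqL, le_normalizer_pCoreOf_centralizer E hsN, hqE, hsE,
    fun x hx hc => ?_, fun x hx hc => ?_, fun hb => ?_, ?_⟩
  · obtain ⟨k, hk⟩ := isPGroup_two_pCoreOf C ⟨x, hx⟩
    exact hfix5 x (pCoreOf_two_le C hx) hc k (congrArg Subtype.val hk)
  · have h := hfix7 (Cfsg.pCoreOf 2 C ⊓ Subgroup.centralizer ({s} : Set G)) inf_le_right
      ((isPGroup_two_pCoreOf C).to_le inf_le_left) fun y hy => ⟨
        (Subgroup.mem_normalizer_iff.1 hqL y).1 hy.1,
        Subgroup.mem_centralizer_singleton_iff.2 (by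
          have hy' : Commute y s := Subgroup.mem_centralizer_singleton_iff.1 hy.2
          exact ((hqs.mul_left hy').mul_left hqs.inv_left).eq)⟩
    have hx' : x ∈ Cfsg.pCoreOf 2 C ⊓ Subgroup.centralizer ({s} : Set G) :=
      ⟨hx, Subgroup.mem_centralizer_singleton_iff.2 hc.eq.symm⟩
    rw [h, Subgroup.mem_bot] at hx'
    exact hx'
  · have hHcard : Nat.card ↥H = 887040 * (3 * 2 ^ 13) := by
      have h := d.π.ker.card_mul_index
      rw [Subgroup.index_ker, MonoidHom.range_eq_top.2 d.surj, Subgroup.card_top,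
        CfsgLib.J4Type67.Setup.card_mulAut, d.cardKer] at h
      rw [← h, Nat.mul_comm]
    have h := hb.trans (Subgroup.card_dvd_of_le ((pCoreOf_two_le C).trans hCH))
    rw [hHcard] at h
    norm_num at h
  · by_contra hab
    simp only [not_exists, not_and, not_not] at hab
    have h128 := d.card_le_of_commute (D := D) inf_le_left fun a ha b hb =>
      Subtype.ext (hab a (hDL a ha) b (hDL b hb)).eq
    omega

/-- The normaliser of `L` is that of `E`. -/
theorem normalizer_eq {E : Subgroup G} {q s : G}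
    (d : LData (Cfsg.pCoreOf 2 (Subgroup.centralizer (E : Set G))) E q s) :
    Subgroup.normalizer (Cfsg.pCoreOf 2 (Subgroup.centralizer (E : Set G)) : Set G) =
      Subgroup.normalizer (E : Set G) := by
  refine le_antisymm (fun g hg => ?_) (le_normalizer_pCoreOf_centralizer E)
  set L := Cfsg.pCoreOf 2 (Subgroup.centralizer (E : Set G))
  refine Subgroup.mem_normalizer_fintype (S := (E : Set G)) fun e he => ?_
  have h : ∀ y : ↥L, g * (y : G) * g⁻¹ ∈ L := fun y => (Subgroup.mem_normalizer_iff.1 hg y).1 y.2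
  have hec : (⟨e, d.le he⟩ : ↥L) ∈ Subgroup.center ↥L := d.le_center he
  have hc : (⟨g * e * g⁻¹, h ⟨e, d.le he⟩⟩ : ↥L) ∈ Subgroup.center ↥L := by
    refine Subgroup.mem_center_iff.2 fun y => Subtype.ext ?_
    have hy : g⁻¹ * (y : G) * g ∈ L := by
      rw [Subgroup.mem_normalizer_iff.1 hg]
      simp [mul_assoc]
    have he' := congrArg Subtype.val (Subgroup.mem_center_iff.1 hec ⟨_, hy⟩)
    simp only [Subgroup.coe_mul] at he' ⊢
    calc (y : G) * (g * e * g⁻¹) = g * (g⁻¹ * y * g * e) * g⁻¹ := by group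
    _ = g * (e * (g⁻¹ * y * g)) * g⁻¹ := by rw [he']
    _ = g * e * g⁻¹ * y := by group
  rw [d.center_eq] at hc
  exact hc

end CfsgLib.J4Pentad
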