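import Cfsg.Agent.PGroup.Frattini
import Cfsg.Prelude.Def_Transfer

/-!
The group `L` of order `2^15`: a 2-group normalised by commuting elements of orders five and seven,
the first fixing exactly an elementary central subgroup `E` of order eight, the second nothing, is
special of order `2^15` with centre `E`.
-/

set_option autoImplicit false

universe u

namespace CfsgLib.J4Pentad

open scoped commutatorElement

variable {G : Type u} [Group G] [Finite G]

omit [Finite G] in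
private theorem conj_end_pow {K : Subgroup G} {q : G} (f : Function.End ↥K)
    (hf : ∀ x : ↥K, (f x : G) = q * x * q⁻¹) (k : ℕ) (x : ↥K) :
    ((f ^ k) x : G) = q ^ k * x * (q ^ k)⁻¹ := by
  induction k generalizing x with
  | zero => simp [Function.End.one_def]
  | succ n ih =>
    rw [pow_succ, pow_succ]
    change ((f ^ n) (f x) : G) = _
    rw [ih, hf]
    group

/-- An element of prime order normalising a subgroup: the count of its fixed points. -/
theorem card_modEq_fixed {K : Subgroup G} {q : G} {p : ℕ} [Fact p.Prime] (hq : q ^ p = 1)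
    (hK : ∀ x ∈ K, q * x * q⁻¹ ∈ K) :
    Nat.card ↥K % p = Nat.card {x : G // x ∈ K ∧ Commute q x} % p := by
  classical
  haveI := Fintype.ofFinite ↥K
  let f : Function.End ↥K := fun x => ⟨q * x * q⁻¹, hK x x.2⟩
  have hf : f ^ p ^ 1 = 1 := by
    funext x
    apply Subtype.ext
    rw [conj_end_pow f (fun _ => rfl), pow_one, hq, one_mul, inv_one, mul_one]
    rfl
  have h := Equiv.Perm.card_fixedPoints_modEq hf
  rw [Fintype.card_eq_nat_card, Fintype.card_eq_nat_card] at h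
  refine Eq.trans h ?_
  rw [Nat.card_congr (α := ↥f.fixedPoints) (β := {x : G // x ∈ K ∧ Commute q x})
    ⟨fun x => ⟨x.1.1, x.1.2, ?_⟩, fun x => ⟨⟨x.1, x.2.1⟩, ?_⟩, fun x => rfl, fun x => rfl⟩]
  · have hx : q * (x.1 : G) * q⁻¹ = x.1 := congrArg Subtype.val x.2
    show q * (x.1 : G) = x.1 * q
    conv_rhs => rw [← hx]
    group
  · show f ⟨x.1, x.2.1⟩ = ⟨x.1, x.2.1⟩
    apply Subtype.ext
    show q * x.1 * q⁻¹ = x.1
    rw [x.2.2, mul_inv_cancel_right]

omit [Finite G] in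
private theorem conj_mem_map {L : Subgroup G} {q : G} (hq : q ∈ Subgroup.normalizer (L : Set G))
    {N : Subgroup ↥L} (hN : ∀ φ : ↥L →* ↥L, Function.Surjective φ → ∀ x ∈ N, φ x ∈ N) :
    ∀ x ∈ N.map L.subtype, q * x * q⁻¹ ∈ N.map L.subtype := by
  rintro _ ⟨x, hx, rfl⟩
  have h : ∀ y : ↥L, q * (y : G) * q⁻¹ ∈ L := fun y => (Subgroup.mem_normalizer_iff.1 hq y).1 y.2
  let φ : ↥L →* ↥L := MonoidHom.mk' (fun y => ⟨q * y * q⁻¹, h y⟩) fun a b =>
    Subtype.ext (by simp only [Subgroup.coe_mul]; group)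
  refine ⟨φ x, hN φ (fun y => ?_) x hx, rfl⟩
  refine ⟨⟨q⁻¹ * y * q, ?_⟩, Subtype.ext (by simp [φ, mul_assoc])⟩
  rw [Subgroup.mem_normalizer_iff.1 hq]
  simp [mul_assoc]

/-- The abstract data of the group `L`. -/
structure LData (L E : Subgroup G) (q s : G) : Prop where
  two : IsPGroup 2 ↥L
  le : E ≤ L
  elem : Cfsg.IsElementaryAbelian 2 E
  cardE : Nat.card ↥E = 8
  central : L ≤ Subgroup.centralizer (E : Set G)
  q5 : q ^ 5 = 1
  s7 : s ^ 7 = 1
  qL : q ∈ Subgroup.normalizer (L : Set G)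
  sL : s ∈ Subgroup.normalizer (L : Set G)
  qE : ∀ e ∈ E, Commute q e
  sE : ∀ e ∈ E, s * e * s⁻¹ ∈ E
  qfix : ∀ x ∈ L, Commute q x → x ∈ E
  sfix : ∀ x ∈ L, Commute s x → x = 1
  bound : ¬ 2 ^ 27 ∣ Nat.card ↥L
  nonab : ∃ a ∈ L, ∃ b ∈ L, ¬ Commute a b

namespace LData

variable {L E : Subgroup G} {q s : G}

/-- Subgroups between `E` and `L` invariant under both elements. -/
theorem card_between (d : LData L E q s) {K : Subgroup G} (hEK : E ≤ K) (hKL : K ≤ L)
    (hq : ∀ x ∈ K, q * x * q⁻¹ ∈ K) (hs : ∀ x ∈ K, s * x * s⁻¹ ∈ K) :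
    Nat.card ↥K = 2 ^ 3 ∨ Nat.card ↥K = 2 ^ 15 := by
  haveI : Fact (Nat.Prime 2) := ⟨Nat.prime_two⟩
  haveI : Fact (Nat.Prime 5) := ⟨by norm_num⟩
  haveI : Fact (Nat.Prime 7) := ⟨by norm_num⟩
  obtain ⟨n, hn⟩ := (d.two.to_le hKL).exists_card_eq
  have h5 := card_modEq_fixed (K := K) d.q5 hq
  have h7 := card_modEq_fixed (K := K) d.s7 hs
  have e5 : Nat.card {x : G // x ∈ K ∧ Commute q x} = 8 := by
    rw [← d.cardE]
    exact Nat.card_congr (Equiv.subtypeEquivRight fun x =>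
      ⟨fun h => d.qfix x (hKL h.1) h.2, fun h => ⟨hEK h, d.qE x h⟩⟩)
  have e7 : Nat.card {x : G // x ∈ K ∧ Commute s x} = 1 := by
    rw [Nat.card_eq_one_iff_unique]
    exact ⟨⟨fun a b => Subtype.ext ((d.sfix _ (hKL a.2.1) a.2.2).trans
      (d.sfix _ (hKL b.2.1) b.2.2).symm)⟩, ⟨⟨1, one_mem _, Commute.one_right s⟩⟩⟩
  have hlt : n < 27 := by
    by_contra h
    exact d.bound ((pow_dvd_pow 2 (not_lt.1 h)).trans (hn ▸ Subgroup.card_dvd_of_le hKL))
  rw [e5, hn] at h5
  rw [e7, hn] at h7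
  interval_cases n <;> first | omega | (left; exact hn) | (right; exact hn)

theorem ne (d : LData L E q s) : E ≠ L := by
  rintro rfl
  obtain ⟨a, ha, b, hb, hab⟩ := d.nonab
  haveI := d.elem.1
  exact hab (congrArg Subtype.val (mul_comm' (⟨a, ha⟩ : ↥E) ⟨b, hb⟩))

theorem card_L (d : LData L E q s) : Nat.card ↥L = 2 ^ 15 := by
  rcases d.card_between d.le le_rfl (fun x hx => (Subgroup.mem_normalizer_iff.1 d.qL x).1 hx)
    (fun x hx => (Subgroup.mem_normalizer_iff.1 d.sL x).1 hx) with h | h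
  · exact absurd (Subgroup.eq_of_le_of_card_ge d.le (by rw [h, d.cardE]; norm_num)) d.ne
  · exact h

theorem frattini_le (d : LData L E q s) : frattini ↥L ≤ E.subgroupOf L := by
  set F := (frattini ↥L).map L.subtype
  have hFL : F ≤ L := Subgroup.map_subtype_le _
  have hinv : ∀ g : G, g ∈ Subgroup.normalizer (L : Set G) → (∀ e ∈ E, g * e * g⁻¹ ∈ E) →
      ∀ x ∈ F ⊔ E, g * x * g⁻¹ ∈ F ⊔ E := by
    intro g hg hgE
    have h : F ⊔ E ≤ (F ⊔ E).comap (MulAut.conj g).toMonoidHom := by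
      refine sup_le (fun x hx => ?_) fun x hx => ?_
      · exact Subgroup.mem_sup_left (conj_mem_map hg
          (fun φ hφ y hy => frattini_le_comap_frattini_of_surjective hφ hy) x hx)
      · exact Subgroup.mem_sup_right (hgE x hx)
    exact fun x hx => h hx
  have hqE : ∀ e ∈ E, q * e * q⁻¹ ∈ E := fun e he => by
    rw [(d.qE e he).eq, mul_inv_cancel_right]; exact he
  rcases d.card_between le_sup_right (sup_le hFL d.le) (hinv q d.qL hqE) (hinv s d.sL d.sE)
    with h | h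
  · have heq : E = F ⊔ E := Subgroup.eq_of_le_of_card_ge le_sup_right (by rw [h, d.cardE]; norm_num)
    intro x hx
    rw [Subgroup.mem_subgroupOf, heq]
    exact Subgroup.mem_sup_left ⟨x, hx, rfl⟩
  · exfalso
    have heq : F ⊔ E = L := Subgroup.eq_of_le_of_card_ge (sup_le hFL d.le) (by rw [h, d.card_L])
    have htop : E.subgroupOf L ⊔ frattini ↥L = ⊤ := by
      apply Subgroup.map_injective L.subtype_injective
      rw [Subgroup.map_sup, Subgroup.map_subgroupOf_eq_of_le d.le, ← MonoidHom.range_eq_map,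
        Subgroup.range_subtype, sup_comm]
      exact heq
    exact d.ne (le_antisymm d.le (Subgroup.subgroupOf_eq_top.1 (frattini_nongenerating htop)))

theorem le_center (d : LData L E q s) : E.subgroupOf L ≤ Subgroup.center ↥L := fun e he =>
  Subgroup.mem_center_iff.2 fun x =>
    Subtype.ext (Subgroup.mem_centralizer_iff.1 (d.central x.2) e he).symm

theorem center_eq (d : LData L E q s) : Subgroup.center ↥L = E.subgroupOf L := by
  refine le_antisymm ?_ d.le_center
  set K := (Subgroup.center ↥L).map L.subtype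
  have hKL : K ≤ L := Subgroup.map_subtype_le _
  have hEK : E ≤ K := fun e he => ⟨⟨e, d.le he⟩, d.le_center he, rfl⟩
  have hc : ∀ φ : ↥L →* ↥L, Function.Surjective φ → ∀ x ∈ Subgroup.center ↥L,
      φ x ∈ Subgroup.center ↥L := fun φ hφ x hx => Subgroup.mem_center_iff.2 fun y => by
    obtain ⟨y, rfl⟩ := hφ y
    rw [← map_mul, ← map_mul, Subgroup.mem_center_iff.1 hx]
  rcases d.card_between hEK hKL (conj_mem_map d.qL hc) (conj_mem_map d.sL hc) with h | h
  · have heq : E = K := Subgroup.eq_of_le_of_card_ge hEK (by rw [h, d.cardE]; norm_num)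
    intro x hx
    rw [Subgroup.mem_subgroupOf, heq]
    exact ⟨x, hx, rfl⟩
  · exfalso
    have heq : K = L := Subgroup.eq_of_le_of_card_ge hKL (by rw [h, d.card_L])
    obtain ⟨a, ha, b, hb, hab⟩ := d.nonab
    obtain ⟨a', ha', rfl⟩ : a ∈ K := heq ▸ ha
    exact hab (congrArg Subtype.val (Subgroup.mem_center_iff.1 ha' ⟨b, hb⟩)).symm

theorem commutator_eq (d : LData L E q s) : commutator ↥L = E.subgroupOf L := by
  haveI : Fact (Nat.Prime 2) := ⟨Nat.prime_two⟩
  haveI : Fact (Nat.Prime 7) := ⟨by norm_num⟩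
  have hle : commutator ↥L ≤ E.subgroupOf L :=
    (CfsgLib.PGroup.commutator_le_frattini d.two).trans d.frattini_le
  refine le_antisymm hle ?_
  set K := (commutator ↥L).map L.subtype
  have hKL : K ≤ L := Subgroup.map_subtype_le _
  have hKE : K ≤ E := by
    rintro _ ⟨x, hx, rfl⟩
    exact hle hx
  have hs : ∀ x ∈ K, s * x * s⁻¹ ∈ K := conj_mem_map d.sL fun φ hφ x hx => by
    have h : (commutator ↥L).map φ ≤ commutator ↥L := by
      rw [commutator_def, Subgroup.map_commutator]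
      exact Subgroup.commutator_mono le_top le_top
    exact h ⟨x, hx, rfl⟩
  have h7 := card_modEq_fixed (K := K) d.s7 hs
  have e7 : Nat.card {x : G // x ∈ K ∧ Commute s x} = 1 := by
    rw [Nat.card_eq_one_iff_unique]
    exact ⟨⟨fun a b => Subtype.ext ((d.sfix _ (hKL a.2.1) a.2.2).trans
      (d.sfix _ (hKL b.2.1) b.2.2).symm)⟩, ⟨⟨1, one_mem _, Commute.one_right s⟩⟩⟩
  obtain ⟨n, hn, hn'⟩ := (Nat.dvd_prime_pow Nat.prime_two).1
    (show Nat.card ↥K ∣ 2 ^ 3 from (Subgroup.card_dvd_of_le hKE).trans (by rw [d.cardE]; norm_num))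
  have hK1 : Nat.card ↥K ≠ 1 := by
    intro h1
    obtain ⟨a, ha, b, hb, hab⟩ := d.nonab
    rw [Subgroup.card_eq_one] at h1
    have hmem : ((⁅(⟨a, ha⟩ : ↥L), ⟨b, hb⟩⁆ : ↥L) : G) ∈ K :=
      ⟨_, Subgroup.commutator_mem_commutator (Subgroup.mem_top _) (Subgroup.mem_top _), rfl⟩
    rw [h1, Subgroup.mem_bot] at hmem
    exact hab (commutatorElement_eq_one_iff_mul_comm.1 hmem)
  rw [e7, hn'] at h7
  have hn3 : n = 3 := by interval_cases n <;> simp_all
  have heq : K = E := Subgroup.eq_of_le_of_card_ge hKE (by rw [hn', hn3, d.cardE]; norm_num)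
  intro x hx
  obtain ⟨y, hy, hyx⟩ : (x : G) ∈ K := heq ▸ hx
  exact Subtype.ext hyx ▸ hy

/-- `L` is special of order `2^15` with centre of order eight. -/
theorem isSpecial (d : LData L E q s) :
    Cfsg.IsSpecial 2 ↥L ∧ Nat.card ↥L = 2 ^ 15 ∧ Nat.card ↥(Subgroup.center ↥L) = 8 := by
  haveI : Fact (Nat.Prime 2) := ⟨Nat.prime_two⟩
  refine ⟨⟨d.two, ?_, d.commutator_eq.trans d.center_eq.symm⟩, d.card_L, ?_⟩
  · refine le_antisymm (d.frattini_le.trans d.center_eq.ge) ?_
    rw [d.center_eq, ← d.commutator_eq]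
    exact CfsgLib.PGroup.commutator_le_frattini d.two
  · rw [d.center_eq, Nat.card_congr (Subgroup.subgroupOfEquivOfLe d.le).toEquiv, d.cardE]

end LData

end CfsgLib.J4Pentad
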